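import Mathlib

/-!
# Square matrices over the field with two elements given by rows of bits, for kernel evaluation
-/

set_option autoImplicit false

namespace CfsgLib.SchurMult.BitRows

/-- The matrix with the given rows of bits. -/
def bmat (n : ℕ) (B : List ℕ) : Matrix (Fin n) (Fin n) (ZMod 2) :=
  Matrix.of fun i j => if (B.getD (i : ℕ) 0).testBit (j : ℕ) then 1 else 0

/-- A row times a matrix (recursors and primitive operations, for speed in the kernel). -/
noncomputable def rowMul (a : ℕ) (Y : List ℕ) : ℕ :=
  List.rec (motive := fun _ => ℕ → ℕ) (fun _ => 0)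
    (fun b _ ih a => Nat.xor (Nat.mul (Nat.mod a 2) b) (ih (Nat.div a 2))) Y a

theorem rowMul_cons (a b : ℕ) (bs : List ℕ) : rowMul a (b :: bs) = a % 2 * b ^^^ rowMul (a / 2) bs := rfl

/-- The product. -/
noncomputable def bmul (X Y : List ℕ) : List ℕ :=
  List.rec (motive := fun _ => List ℕ) [] (fun a _ ih => rowMul a Y :: ih) X

theorem bmul_eq_map (X Y : List ℕ) : bmul X Y = X.map fun a => rowMul a Y := by
  induction X with
  | nil => rfl
  | cons a X ih => rw [List.map_cons, ← ih]; rfl

/-- The identity. -/
def bone (n : ℕ) : List ℕ := (List.range n).map fun i => 2 ^ i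

theorem bone_length (n : ℕ) : (bone n).length = n := by simp [bone]

theorem bmul_length (X Y : List ℕ) : (bmul X Y).length = X.length := by simp [bmul_eq_map]

theorem bit_xor (a b j : ℕ) :
    (if (a ^^^ b).testBit j then (1 : ZMod 2) else 0) =
      (if a.testBit j then 1 else 0) + (if b.testBit j then 1 else 0) := by
  rw [Nat.testBit_xor]
  cases a.testBit j <;> cases b.testBit j <;> simp <;> rfl

theorem rowMul_bit : ∀ (Y : List ℕ) (a j : ℕ),
    (if (rowMul a Y).testBit j then (1 : ZMod 2) else 0) =
      ∑ k ∈ Finset.range Y.length,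
        (if a.testBit k then (1 : ZMod 2) else 0) * (if (Y.getD k 0).testBit j then 1 else 0) := by
  intro Y
  induction Y with
  | nil => intro a j; simp [rowMul]
  | cons b bs ih =>
    intro a j
    rw [rowMul_cons, bit_xor, ih, List.length_cons, Finset.sum_range_succ', add_comm]
    congr 1
    · refine Finset.sum_congr rfl fun k _ => ?_
      rw [Nat.testBit_add_one, List.getD_cons_succ]
    · rw [List.getD_cons_zero, Nat.testBit_zero]
      rcases Nat.mod_two_eq_zero_or_one a with h | h <;> simp [h]

theorem bmat_mul (n : ℕ) (X Y : List ℕ) (hX : X.length = n) (hY : Y.length = n) :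
    bmat n (bmul X Y) = bmat n X * bmat n Y := by
  ext i j
  rw [Matrix.mul_apply, Finset.sum_fin_eq_sum_range]
  show (if ((bmul X Y).getD i 0).testBit j then (1 : ZMod 2) else 0) = _
  have hi : (i : ℕ) < X.length := hX ▸ i.isLt
  rw [show (bmul X Y).getD i 0 = rowMul (X.getD i 0) Y by
    simp [bmul_eq_map, List.getD_eq_getElem?_getD, List.getElem?_map, hi], rowMul_bit, hY]
  refine Finset.sum_congr rfl fun k hk => ?_
  rw [dif_pos (Finset.mem_range.1 hk)]
  rfl

theorem bmat_bone (n : ℕ) : bmat n (bone n) = 1 := by
  ext i j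
  show (if ((bone n).getD i 0).testBit j then (1 : ZMod 2) else 0) = _
  rw [show (bone n).getD i 0 = 2 ^ (i : ℕ) by
    simp [bone, List.getD_eq_getElem?_getD, List.getElem?_map, List.getElem?_range i.isLt]]
  rw [Nat.testBit_two_pow, Matrix.one_apply]
  by_cases h : i = j
  · subst h; simp
  · simp [h, Fin.val_eq_val]

end CfsgLib.SchurMult.BitRows
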