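import Cfsg.Prelude.Def_KGroupFacts
import Cfsg.Agent.Lib.ExtraspecialLarge.CentralLift
import Cfsg.Agent.Lib.SchurMult.Fi22.Data
import Cfsg.Agent.S1696

/-!
# The upper bound for the Schur multiplier of Fi₂₂

Lifts of the nine generators to a central extension can be chosen as involutions satisfying all Coxeter relations
and one of the two E₇ relations. Then the other E₇ relation has order dividing 2 and the spider relation, a
translation in the affine Weyl group of type E₆, order dividing 3.
-/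

set_option autoImplicit false
open Cfsg

namespace CfsgLib.SchurMult.Fi22Bound

open CfsgLib.ExtraspecialLarge CfsgLib.ExtraspecialLarge.RootRefl
open CfsgLib.SporRecognition.CosetCert CfsgLib.SporRecognition.Cert
open CfsgLib.SchurMult.Fi22Cert

/-- neighbour lists (order `d e c h f b i g a`) -/
def nb9 (i : ℕ) : List ℕ :=
  [[1, 2, 3], [0, 4], [0, 5], [0, 6], [1, 7], [2, 8], [3], [4], [5]].getD i []

lemma graph9 : Graph 9 nb9 where
  lt := by decide
  irr := by decide
  symm := by decide
  nodup := by decide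

/-- the generators in root order -/
def gens : List Spor.Fi22.Gen := [.d, .e, .c, .h, .f, .b, .i, .g, .a]

/-- the generator at a position -/
def pick (i : ℕ) : Spor.Fi22.Gen := gens.getD i .d

/-- parents in the tree -/
def par (i : ℕ) : ℕ := [0, 0, 0, 0, 1, 2, 3, 4, 5].getD i 0

/-- the spider word -/
def spider : List ℕ := [0, 2, 5, 0, 1, 4, 0, 3, 6]

/-- the first E₇ word -/
def zOne : List ℕ := (List.replicate 9 [8, 5, 2, 0, 1, 4, 3]).flatten

/-- the second E₇ word -/
def zTwo : List ℕ := (List.replicate 9 [5, 2, 0, 1, 4, 7, 3]).flatten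

/-- the E₇ word centralised by `a` -/
def zThree : List ℕ := (List.replicate 9 [2, 0, 1, 4, 7, 3, 6]).flatten

/-- three translations adding up to zero -/
def spiderTriple : List ℕ :=
  (spiderConj.map fun g => g ++ (List.replicate 10 spider).flatten ++ g.reverse).flatten

/-- the given commuting pairs -/
def base : List (ℕ × ℕ) := [(8, 0), (8, 1), (8, 2), (8, 3), (8, 4), (8, 6), (8, 7)]

/-- membership up to order -/
def knownB (l : List (ℕ × ℕ)) (a b : ℕ) : Bool := l.any fun p => p == (a, b) || p == (b, a)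

/-- close a list of commuting pairs -/
def closeOK : List (ℕ × ℕ × ℕ) → List (ℕ × ℕ) → Option (List (ℕ × ℕ))
  | [], l => some l
  | (a, b, d) :: st, l =>
    if knownB l a b && decide (a < 9 ∧ b < 9 ∧ d < 9 ∧ d ∈ nb9 b ∧ a ≠ d ∧ d ∉ nb9 a) then
      closeOK st ((a, d) :: l)
    else none

section
variable {Δ : Type*} [Group Δ] (ε : ℕ → Δ)

lemma knownB_sound {l : List (ℕ × ℕ)} (hl : ∀ p ∈ l, ε p.1 * ε p.2 = ε p.2 * ε p.1) {a b : ℕ}
    (h : knownB l a b = true) : ε a * ε b = ε b * ε a := by
  simp only [knownB, List.any_eq_true, Bool.or_eq_true, beq_iff_eq] at h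
  obtain ⟨p, hp, h | h⟩ := h <;> subst h
  · exact hl _ hp
  · exact (hl _ hp).symm

lemma closeOK_sound (hsq : ∀ i, i < 9 → ε i * ε i = 1)
    (hbr : ∀ i, i < 9 → ∀ j ∈ nb9 i, ε i * ε j * ε i = ε j * ε i * ε j)
    (hcen : ∀ i, i < 9 → ∀ j, j < 9 → i ≠ j → j ∉ nb9 i → ε i * ε j * ε i * ε j ∈ Subgroup.center Δ) :
    ∀ {st : List (ℕ × ℕ × ℕ)} {l l' : List (ℕ × ℕ)}, (∀ p ∈ l, ε p.1 * ε p.2 = ε p.2 * ε p.1) →
      closeOK st l = some l' → ∀ p ∈ l', ε p.1 * ε p.2 = ε p.2 * ε p.1
  | [], l, l', hl, h => by simp only [closeOK, Option.some.injEq] at h; subst h; exact hl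
  | (a, b, d) :: st, l, l', hl, h => by
    simp only [closeOK] at h
    split at h
    · next hc =>
      simp only [Bool.and_eq_true, decide_eq_true_eq] at hc
      obtain ⟨hk, ha, hb, hd, hbd, had, hnad⟩ := hc
      refine closeOK_sound hsq hbr hcen (fun p hp => ?_) h
      rcases List.mem_cons.1 hp with rfl | hp
      · exact CentralLift.pair_step (hsq a ha) (hsq b hb) (hsq d hd) (hbr b hb d hbd)
          (knownB_sound ε hl hk) (hcen a ha d hd had hnad)
      · exact hl p hp
    · simp at h

end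

lemma pick_label : ∀ i < 9, ∀ j < 9, Spor.coxLabel Spor.Fi22.edges (pick i) (pick j) =
    if i = j then 1 else if j ∈ nb9 i then 3 else 2 := by decide +kernel

lemma pick_surj (x : Spor.Fi22.Gen) : ∃ i < 9, pick i = x := by cases x <;> decide

lemma mem_nodes (x : Spor.Fi22.Gen) : x ∈ Spor.coxNodes Spor.Fi22.edges := by cases x <;> decide

lemma hom_injective : Function.Injective Fi22U.certified.hom := by
  haveI : IsSimpleGroup Spor.Fi22 := Cfsg.Agent.S1696.result.1
  rw [← MonoidHom.ker_eq_bot_iff]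
  rcases (MonoidHom.normal_ker Fi22U.certified.hom).eq_bot_or_eq_top with h | h
  · exact h
  exfalso
  obtain ⟨w, hw⟩ := Fi22U.trans_ok 1 (by decide)
  have h1 : Fi22U.certified.hom (evalW (PresentedGroup.of) w) = 1 := MonoidHom.mem_ker.mp (by rw [h]; trivial)
  rw [Fi22U.certified.hom_evalW] at h1
  have h2 := congrArg (fun p : Equiv.Perm (Fin 3510) => ((p ⟨0, by decide⟩ : Fin 3510) : Nat)) h1
  simp only [evalW_tabPerm, Equiv.Perm.one_apply] at h2
  rw [hw] at h2
  exact absurd h2 (by decide)

theorem zThree_trace : allBelow 12 3510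
    (fun u => Nat.beq (trace (wordTabs Fi22U.tabs (zThree.map fun i => (pick i, true))) u) u) = true := by
  decide +kernel

/-- the E₇ relation which is not among the defining ones -/
lemma zThree_eq : wp (fun i => (PresentedGroup.of (pick i) : Spor.Fi22)) zThree = 1 := by
  have e : wp (fun i => (PresentedGroup.of (pick i) : Spor.Fi22)) zThree =
      evalW (PresentedGroup.of) (zThree.map fun i => (pick i, true)) := by
    rw [evalW_eq_prod, wp, List.map_map]; rfl
  rw [e]
  apply hom_injective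
  rw [map_one, Fi22U.certified.hom_evalW]
  exact evalW_tabPerm_eq_one _ fun u hu => Nat.eq_of_beq_eq_true (allBelow_spec zThree_trace u hu)

lemma cox_mul_central {Δ : Type*} [Group Δ] {ε : ℕ → Δ} {ζ : Δ} (hc : ζ ∈ Subgroup.center Δ) (hζ : ζ * ζ = 1)
    (hs : Cox 9 nb9 ε) : Cox 9 nb9 fun i => ε i * ζ := by
  have sc : ∀ x y : Δ, x * ζ * (y * ζ) = x * y := by
    intro x y
    calc x * ζ * (y * ζ) = x * (ζ * y) * ζ := by group
      _ = x * (y * ζ) * ζ := by rw [← Subgroup.mem_center_iff.1 hc y]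
      _ = x * y * (ζ * ζ) := by group
      _ = x * y := by rw [hζ, mul_one]
  refine ⟨fun i hi => by simp only [sc]; exact hs.sq i hi,
    fun i hi j hj h h' => by simp only [sc]; exact hs.comm i hi j hj h h', fun i hi j hj => ?_⟩
  simp only [sc, ← mul_assoc]
  rw [hs.braid i hi j hj]

set_option maxHeartbeats 1000000 in
/-- after a change of lifts the three relators give a cyclic group of order dividing six -/
theorem exists_lifts {Γ : Type} [Group Γ] [Finite Γ] {σ : Γ →* Spor.Fi22} (hσ : Cfsg.IsStemExtension σ) :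
    ∃ (Δ : Type) (_ : Group Δ) (τ : Δ →* Spor.Fi22) (ι : Γ →* Δ) (ε : ℕ → Δ),
      τ.ker ≤ Subgroup.center Δ ∧ Function.Injective ι ∧ τ.comp ι = σ ∧
      (∀ i, τ (ε i) = PresentedGroup.of (pick i)) ∧ Cox 9 nb9 ε ∧ wp ε zOne = 1 ∧
      τ (wp ε zTwo) = 1 ∧ wp ε zTwo * wp ε zTwo = 1 ∧ τ (wp ε spider ^ 10) = 1 ∧
      (wp ε spider ^ 10) ^ 3 = 1 := by
  obtain ⟨hsurj, hcen, -⟩ := hσ
  let g : ℕ → Spor.Fi22 := fun i => PresentedGroup.of (pick i)
  have hrel : ∀ i, i < 9 → ∀ j, j < 9 → (g i * g j) ^
      (if i = j then 1 else if j ∈ nb9 i then 3 else 2) = 1 := by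
    intro i hi j hj
    rw [← pick_label i hi j hj]
    exact PresentedGroup.one_of_mem
      (show (FreeGroup.of (pick i) * FreeGroup.of (pick j)) ^ Spor.coxLabel Spor.Fi22.edges (pick i) (pick j) ∈ _ from
        Or.inl ⟨pick i, mem_nodes _, pick j, mem_nodes _, rfl⟩)
  have gsq : ∀ i, i < 9 → g i * g i = 1 := fun i hi => by simpa using hrel i hi i hi
  have ginv : ∀ i, i < 9 → (g i)⁻¹ = g i := fun i hi => inv_eq_of_mul_eq_one_right (gsq i hi)
  have gbr : ∀ i, i < 9 → ∀ j ∈ nb9 i, g i * g j * g i = g j * g i * g j := by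
    intro i hi j hadj
    have hj := graph9.lt i hi j hadj
    have hne : i ≠ j := fun e => graph9.irr i hi (e ▸ hadj)
    have h3 := hrel i hi j hj
    simp only [hne, hadj, if_false, if_true, pow_three] at h3
    have e : g i * g j * g i * (g j * g i * g j) = 1 := by rw [← h3]; group
    rw [mul_eq_one_iff_eq_inv, mul_inv_rev, mul_inv_rev, ginv i hi, ginv j hj, ← mul_assoc] at e
    exact e
  obtain ⟨e, he, hb⟩ := CentralLift.exists_braided hsurj hcen g par 9 (by
      intro i h0 hi; revert h0; revert i; decide) (fun i h0 hi => by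
      refine gbr (par i) ?_ i ?_
      · revert h0; revert i; decide
      · revert h0; revert i; decide)
  set q := e 0 * e 0 with hq
  have hq1 : σ q = 1 := by rw [hq, map_mul, he]; exact gsq 0 (by omega)
  have hsame : ∀ i, i < 9 → e i * e i = q := by
    intro i
    induction i using Nat.strong_induction_on with
    | _ i IH =>
    intro hi
    rcases Nat.eq_zero_or_pos i with rfl | h0
    · rfl
    · have hp : par i < i := (by decide : ∀ k < 9, 0 < k → par k < k) i hi h0
      rw [← IH (par i) hp (by omega)]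
      refine (CentralLift.sq_eq (hb i h0 hi) ?_).symm
      apply hcen
      rw [MonoidHom.mem_ker, map_mul, he]
      exact gsq _ (by omega)
  obtain ⟨Δ, _, τ, ι, r, hτc, hinj, hτι, hτr, hr⟩ := CentralLift.exists_sqrt σ hcen hq1
  have hτι' : ∀ x, τ (ι x) = σ x := fun x => DFunLike.congr_fun hτι x
  have hrc : ∀ y, y * r = r * y := Subgroup.mem_center_iff.1 (hτc hτr)
  set ε : ℕ → Δ := fun i => ι (e i) * r with hε
  have τε : ∀ i, τ (ε i) = g i := fun i => by simp [hε, hτι', he, hτr]
  have εsq : ∀ i, i < 9 → ε i * ε i = 1 := by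
    intro i hi
    calc ι (e i) * r * (ι (e i) * r) = ι (e i) * (r * ι (e i)) * r := by group
      _ = ι (e i) * (ι (e i) * r) * r := by rw [← hrc (ι (e i))]
      _ = ι (e i * e i) * (r * r) := by rw [map_mul]; group
      _ = r * r * ι q := by
        rw [hsame i hi]; exact (Subgroup.mem_center_iff.1 (hτc (x := r * r) (by
          simp [MonoidHom.mem_ker, hτr])) (ι q))
      _ = 1 := hr
  have scale3 : ∀ x y : Δ, (x * r) * (y * r) * (x * r) = x * y * x * (r * r * r) := by
    intro x y
    calc (x * r) * (y * r) * (x * r) = x * (r * (y * r)) * (x * r) := by group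
      _ = x * (y * r * r) * (x * r) := by rw [← hrc (y * r)]
      _ = x * y * (r * r * x) * r := by group
      _ = x * y * (x * (r * r)) * r := by
        rw [← Subgroup.mem_center_iff.1 (hτc (x := r * r) (by simp [MonoidHom.mem_ker, hτr])) x]
      _ = _ := by group
  have εbr : ∀ i, i < 9 → ∀ j ∈ nb9 i, ε i * ε j * ε i = ε j * ε i * ε j := by
    intro i hi j hj
    have hcase : ∀ i < 9, ∀ j ∈ nb9 i,
        (0 < j ∧ j < 9 ∧ par j = i) ∨ (0 < i ∧ par i = j) := by decide
    rcases hcase i hi j hj with ⟨h0, hj9, hp⟩ | ⟨h0, hp⟩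
    · simp only [hε, scale3, ← map_mul, ← hp, hb j h0 hj9]
    · simp only [hε, scale3, ← map_mul, ← hp, hb i h0 hi]
  have εcen : ∀ i, i < 9 → ∀ j, j < 9 → i ≠ j → j ∉ nb9 i →
      ε i * ε j * ε i * ε j ∈ Subgroup.center Δ := by
    intro i hi j hj hne hn
    apply hτc
    rw [MonoidHom.mem_ker]
    simp only [map_mul, τε]
    have h2 := hrel i hi j hj
    simp only [hne, hn, if_false, pow_two] at h2
    rw [← h2]; group
  -- the relators
  have gspider : wp g spider ^ 10 = 1 := by
    have h : PresentedGroup.mk (Spor.coxRelators Spor.Fi22.edges ∪ {r | r ∈ Spor.Fi22.extra})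
        ((Spor.Fi22.d * Spor.Fi22.c * Spor.Fi22.b * Spor.Fi22.d * Spor.Fi22.e * Spor.Fi22.f * Spor.Fi22.d *
          Spor.Fi22.h * Spor.Fi22.i) ^ 10) = 1 :=
      PresentedGroup.one_of_mem (Or.inr (by simp [Spor.Fi22.extra]))
    rw [← h]
    simp only [map_pow, map_mul, wp, spider, g, pick, gens, List.map_cons, List.map_nil,
      List.prod_cons, List.prod_nil, List.getD_cons_zero, List.getD_cons_succ, mul_one, mul_assoc]
    rfl
  have gz1 : wp g zOne = 1 := by
    have h : PresentedGroup.mk (Spor.coxRelators Spor.Fi22.edges ∪ {r | r ∈ Spor.Fi22.extra})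
        ((Spor.Fi22.a * Spor.Fi22.b * Spor.Fi22.c * Spor.Fi22.d * Spor.Fi22.e * Spor.Fi22.f *
          Spor.Fi22.h) ^ 9) = 1 :=
      PresentedGroup.one_of_mem (Or.inr (by simp [Spor.Fi22.extra]))
    rw [← h, zOne, wp_replicate]
    simp only [map_pow, map_mul, wp, g, pick, gens, List.map_cons, List.map_nil,
      List.prod_cons, List.prod_nil, List.getD_cons_zero, List.getD_cons_succ, mul_one, mul_assoc]
    rfl
  have gz2 : wp g zTwo = 1 := by
    have h : PresentedGroup.mk (Spor.coxRelators Spor.Fi22.edges ∪ {r | r ∈ Spor.Fi22.extra})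
        ((Spor.Fi22.b * Spor.Fi22.c * Spor.Fi22.d * Spor.Fi22.e * Spor.Fi22.f * Spor.Fi22.g *
          Spor.Fi22.h) ^ 9) = 1 :=
      PresentedGroup.one_of_mem (Or.inr (by simp [Spor.Fi22.extra]))
    rw [← h, zTwo, wp_replicate]
    simp only [map_pow, map_mul, wp, g, pick, gens, List.map_cons, List.map_nil,
      List.prod_cons, List.prod_nil, List.getD_cons_zero, List.getD_cons_succ, mul_one, mul_assoc]
    rfl
  have τwp : ∀ w, τ (wp ε w) = wp g w := fun w => by
    rw [CentralLift.map_wp]; exact congrArg (fun f => wp f w) (funext τε)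
  have zc : wp ε zThree ∈ Subgroup.center Δ := hτc (by rw [MonoidHom.mem_ker, τwp]; exact zThree_eq)
  -- the pairs at `a`
  set c0 := ε 8 * ε 0 * ε 8 * ε 0 with hc0
  have hc0c : c0 ∈ Subgroup.center Δ := εcen 8 (by omega) 0 (by omega) (by omega) (by decide)
  have cst : ∀ b d, b < 9 → d < 9 → d ∈ nb9 b → 8 ≠ b → 8 ≠ d → b ∉ nb9 8 → d ∉ nb9 8 →
      ε 8 * ε d * ε 8 * ε d = ε 8 * ε b * ε 8 * ε b := fun b d hb' hd' hbd h8b h8d hnb hnd =>
    CentralLift.pair_const (εsq 8 (by omega)) (εsq b hb') (εsq d hd') (εbr b hb' d hbd)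
      (εcen 8 (by omega) b hb' h8b hnb) (εcen 8 (by omega) d hd' h8d hnd)
  have k1 : ε 8 * ε 1 * ε 8 * ε 1 = c0 :=
    cst 0 1 (by omega) (by omega) (by decide) (by omega) (by omega) (by decide) (by decide)
  have k2 : ε 8 * ε 2 * ε 8 * ε 2 = c0 :=
    cst 0 2 (by omega) (by omega) (by decide) (by omega) (by omega) (by decide) (by decide)
  have k3 : ε 8 * ε 3 * ε 8 * ε 3 = c0 :=
    cst 0 3 (by omega) (by omega) (by decide) (by omega) (by omega) (by decide) (by decide)
  have k4 : ε 8 * ε 4 * ε 8 * ε 4 = c0 :=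
    (cst 1 4 (by omega) (by omega) (by decide) (by omega) (by omega) (by decide) (by decide)).trans k1
  have k6 : ε 8 * ε 6 * ε 8 * ε 6 = c0 :=
    (cst 3 6 (by omega) (by omega) (by decide) (by omega) (by omega) (by decide) (by decide)).trans k3
  have k7 : ε 8 * ε 7 * ε 8 * ε 7 = c0 :=
    (cst 4 7 (by omega) (by omega) (by decide) (by omega) (by omega) (by decide) (by decide)).trans k4
  have i8 : (ε 8)⁻¹ = ε 8 := inv_eq_of_mul_eq_one_right (εsq 8 (by omega))
  have hconj : ∀ k, k < 9 → ε 8 * ε k * ε 8 * ε k = c0 → MulAut.conj (ε 8) (ε k) = ε k * c0 := by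
    intro k hk h
    rw [MulAut.conj_apply, i8, Subgroup.mem_center_iff.1 hc0c, ← h, mul_assoc _ (ε k) (ε k), εsq k hk,
      mul_one]
  have hc01 : c0 = 1 := by
    have hc2 : c0 * c0 = 1 := by
      have e1 : c0 = ε 0 * ε 8 * ε 0 * ε 8 := by
        calc c0 = c0 * (ε 8 * ε 8) := by rw [εsq 8 (by omega), mul_one]
          _ = (c0 * ε 8) * ε 8 := by group
          _ = (ε 8 * c0) * ε 8 := by rw [Subgroup.mem_center_iff.1 hc0c]
          _ = (ε 8 * ε 8) * (ε 0 * ε 8 * ε 0 * ε 8) := by rw [hc0]; group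
          _ = _ := by rw [εsq 8 (by omega), one_mul]
      nth_rewrite 2 [e1]
      rw [hc0]
      calc ε 8 * ε 0 * ε 8 * ε 0 * (ε 0 * ε 8 * ε 0 * ε 8) = ε 8 * ε 0 * ε 8 * (ε 0 * ε 0) * ε 8 * ε 0 * ε 8 := by group
        _ = ε 8 * ε 0 * (ε 8 * ε 8) * ε 0 * ε 8 := by rw [εsq 0 (by omega)]; group
        _ = ε 8 * (ε 0 * ε 0) * ε 8 := by rw [εsq 8 (by omega)]; group
        _ = 1 := by rw [εsq 0 (by omega), mul_one, εsq 8 (by omega)]
    have h1 : MulAut.conj (ε 8) (wp ε zThree) = wp ε zThree * c0 ^ zThree.length := by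
      rw [show MulAut.conj (ε 8) (wp ε zThree) = (MulAut.conj (ε 8)).toMonoidHom (wp ε zThree) from rfl,
        CentralLift.map_wp, ← CentralLift.wp_mul_central hc0c]
      refine congrArg List.prod (List.map_congr_left fun k hk => ?_)
      have hk' : k ∈ [2, 0, 1, 4, 7, 3, 6] := by
        obtain ⟨l, hl, hkl⟩ := List.mem_flatten.1 hk
        rwa [List.eq_of_mem_replicate hl] at hkl
      simp only [List.mem_cons, List.not_mem_nil, or_false] at hk'
      rcases hk' with rfl | rfl | rfl | rfl | rfl | rfl | rfl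
      exacts [hconj 2 (by omega) k2, hconj 0 (by omega) rfl, hconj 1 (by omega) k1, hconj 4 (by omega) k4,
        hconj 7 (by omega) k7, hconj 3 (by omega) k3, hconj 6 (by omega) k6]
    rw [MulAut.conj_apply, Subgroup.mem_center_iff.1 zc (ε 8), mul_inv_cancel_right] at h1
    have h63 : c0 ^ zThree.length = 1 := mul_left_cancel (h1.symm.trans (mul_one _).symm)
    rw [show zThree.length = 2 * 31 + 1 by decide, pow_succ, pow_mul, pow_two, hc2, one_pow, one_mul] at h63
    exact h63
  have hbase : ∀ p ∈ base, ε p.1 * ε p.2 = ε p.2 * ε p.1 := by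
    have key : ∀ k, k < 9 → ε 8 * ε k * ε 8 * ε k = c0 → ε 8 * ε k = ε k * ε 8 := by
      intro k hk h
      rw [hc01, mul_assoc (ε 8 * ε k), mul_eq_one_iff_eq_inv, mul_inv_rev, i8,
        inv_eq_of_mul_eq_one_right (εsq k hk)] at h
      exact h
    intro p hp
    simp only [base, List.mem_cons, List.not_mem_nil, or_false] at hp
    rcases hp with rfl | rfl | rfl | rfl | rfl | rfl | rfl
    exacts [key 0 (by omega) rfl, key 1 (by omega) k1, key 2 (by omega) k2, key 3 (by omega) k3,
      key 4 (by omega) k4, key 6 (by omega) k6, key 7 (by omega) k7]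
  obtain ⟨all, hall⟩ : ∃ all, closeOK closeSteps base = some all :=
    Option.isSome_iff_exists.1 (by decide +kernel)
  have hfull : ∀ i < 9, ∀ j < 9, i ≠ j → j ∉ nb9 i → knownB all i j = true := by
    have : ((closeOK closeSteps base).map fun l => (List.range 9).all fun i => (List.range 9).all fun j =>
        (i == j) || decide (j ∈ nb9 i) || knownB l i j) = some true := by decide +kernel
    rw [hall] at this
    intro i hi j hj hne hn
    simp only [Option.map_some, Option.some.injEq, List.all_eq_true, List.mem_range, Bool.or_eq_true,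
      beq_iff_eq, decide_eq_true_eq] at this
    rcases this i hi j hj with (h | h) | h
    exacts [absurd h hne, absurd h hn, h]
  have hs : Cox 9 nb9 ε := ⟨εsq, fun i hi j hj hne hn =>
    knownB_sound ε (closeOK_sound ε εsq εbr εcen hbase hall) (hfull i hi j hj hne hn), εbr⟩
  -- normalise the first E₇ element to 1
  set ζ := wp ε zOne with hζ
  have hζc : ζ ∈ Subgroup.center Δ := hτc (by rw [MonoidHom.mem_ker, hζ, τwp, gz1])
  have hζ2 : ζ * ζ = 1 := by
    rw [hζ, ← wp_append]
    exact delCheck_sound graph9 hs (cs := zOneDel) (by decide +kernel) (by decide +kernel)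
  have hs' := cox_mul_central hζc hζ2 hs
  set ε' : ℕ → Δ := fun i => ε i * ζ with hε'
  have τε' : ∀ i, τ (ε' i) = g i := fun i => by simp [hε', τε, hζ, τwp, gz1]
  have τwp' : ∀ w, τ (wp ε' w) = wp g w := fun w => by
    rw [CentralLift.map_wp]; exact congrArg (fun f => wp f w) (funext τε')
  have hz1 : wp ε' zOne = 1 := by
    rw [hε', CentralLift.wp_mul_central hζc, ← hζ, show zOne.length = 2 * 31 + 1 by decide, pow_succ, pow_mul,
      pow_two, hζ2, one_pow, one_mul, hζ2]
  have hz2 : wp ε' zTwo * wp ε' zTwo = 1 := by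
    rw [← wp_append]
    exact delCheck_sound graph9 hs' (cs := zTwoDel) (by decide +kernel) (by decide +kernel)
  have hsp : (wp ε' spider ^ 10) ^ 3 = 1 := by
    set s := wp ε' spider ^ 10 with hsdef
    have hsc : s ∈ Subgroup.center Δ := hτc (by rw [MonoidHom.mem_ker, hsdef, map_pow, τwp', gspider])
    have h1 := delCheck_sound graph9 hs' (w := spiderTriple) (cs := spiderDel) (by decide +kernel)
      (by decide +kernel)
    have hwp : ∀ gl : List (List ℕ), (gl.all (okW 9)) = true →
        wp ε' ((gl.map fun g => g ++ (List.replicate 10 spider).flatten ++ g.reverse).flatten) =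
          s ^ gl.length := by
      intro gl
      induction gl with
      | nil => intro _; simp [wp_nil]
      | cons g gl ih =>
        intro hgl
        simp only [List.all_cons, Bool.and_eq_true] at hgl
        rw [List.map_cons, List.flatten_cons, wp_append, ih hgl.2, wp_append, wp_append,
          wp_reverse hs' hgl.1, wp_replicate, ← hsdef, Subgroup.mem_center_iff.1 hsc (wp ε' g),
          mul_inv_cancel_right, List.length_cons, pow_succ']
    rw [spiderTriple, hwp spiderConj (by decide)] at h1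
    exact h1
  exact ⟨Δ, inferInstance, τ, ι, ε', hτc, hinj, hτι, τε', hs', hz1, by rw [τwp', gz2], hz2,
    by rw [map_pow, τwp', gspider], hsp⟩

end CfsgLib.SchurMult.Fi22Bound
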