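import Cfsg.Agent.Lib.SchurMult.Fi22.Bound
import Cfsg.Agent.Lib.SchurMult.Fi22.BitRows
import Cfsg.Agent.S1688

/-!
# A sixfold cover of Fi₂₂

The pairs of the generators of the double cover inside Fi₂₃ and of nine binary 54 × 54 matrices for the triple
cover generate a perfect group whose quotient by a central subgroup of order six is Fi₂₂.
-/

set_option autoImplicit false
open Cfsg

namespace CfsgLib.SchurMult.Fi22Cover

open CfsgLib.ExtraspecialLarge CfsgLib.ExtraspecialLarge.RootRefl
open CfsgLib.SchurMult.Fi22Cert CfsgLib.SchurMult.Fi22Bound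
open CfsgLib.SchurMult.BitRows

/-- the identity -/
def idRows : List ℕ := bone 54

/-- the rows of a generator -/
def genRows (i : ℕ) : List ℕ := mats.getD i idRows

/-- the rows of a product of generators -/
noncomputable def prodRows (w : List ℕ) (acc : List ℕ) : List ℕ := w.foldl (fun A i => bmul A (genRows i)) acc

lemma genRows_length (i : ℕ) : (genRows i).length = 54 := by
  unfold genRows
  rcases Nat.lt_or_ge i 9 with h | h
  · revert h; revert i; decide +kernel
  · rw [List.getD_eq_getElem?_getD, List.getElem?_eq_none (by simpa [mats] using h)]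
    exact bone_length _

lemma genRows_sq (i : ℕ) : bmul (genRows i) (genRows i) = idRows := by
  rcases Nat.lt_or_ge i 9 with h | h
  · revert h; revert i; decide +kernel
  · unfold genRows
    rw [List.getD_eq_getElem?_getD, List.getElem?_eq_none (by simpa [mats] using h)]
    decide +kernel

/-- a generator as an invertible matrix -/
noncomputable def U (i : ℕ) : GL (Fin 54) (ZMod 2) :=
  have h : bmat 54 (genRows i) * bmat 54 (genRows i) = 1 := by
    rw [← bmat_mul 54 _ _ (genRows_length i) (genRows_length i), genRows_sq, idRows, bmat_bone]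
  ⟨bmat 54 (genRows i), bmat 54 (genRows i), h, h⟩

lemma coe_prodRows : ∀ (w acc : List ℕ), acc.length = 54 →
    bmat 54 (prodRows w acc) = bmat 54 acc * ((wp U w : GL (Fin 54) (ZMod 2)) : Matrix (Fin 54) (Fin 54) (ZMod 2))
  | [], acc, _ => by simp [prodRows, wp_nil]
  | i :: w, acc, h => by
    rw [show prodRows (i :: w) acc = prodRows w (bmul acc (genRows i)) from rfl,
      coe_prodRows w _ (by rw [bmul_length, h]), bmat_mul 54 _ _ h (genRows_length i), wp_cons, Units.val_mul,
      mul_assoc]
    rfl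

lemma coe_wp (w : List ℕ) :
    ((wp U w : GL (Fin 54) (ZMod 2)) : Matrix (Fin 54) (Fin 54) (ZMod 2)) = bmat 54 (prodRows w idRows) := by
  rw [coe_prodRows w idRows (bone_length _), idRows, bmat_bone, one_mul]

lemma wp_eq_one {w : List ℕ} (h : prodRows w idRows = idRows) : wp U w = 1 :=
  Units.ext (by rw [coe_wp, h, idRows, bmat_bone, Units.val_one])

lemma wp_eq_wp {v w : List ℕ} (h : prodRows v idRows = prodRows w idRows) : wp U v = wp U w :=
  Units.ext (by rw [coe_wp, coe_wp, h])

/-- the exponent of a pair -/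
def lab (i j : ℕ) : ℕ := if i = j then 1 else if j ∈ nb9 i then 3 else 2

theorem U_cox_rows : ((List.range 9).all fun i => (List.range 9).all fun j =>
    prodRows (List.replicate (lab i j) [i, j]).flatten idRows == idRows) = true := by decide +kernel

lemma U_cox (i : ℕ) (hi : i < 9) (j : ℕ) (hj : j < 9) : (U i * U j) ^ lab i j = 1 := by
  have h := U_cox_rows
  simp only [List.all_eq_true, List.mem_range, beq_iff_eq] at h
  have := wp_eq_one (h i hi j hj)
  rwa [wp_replicate, wp_cons, wp_singleton] at this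

theorem U_zOne : wp U zOne = 1 := wp_eq_one (by decide +kernel)

theorem U_zTwo : wp U zTwo = 1 := wp_eq_one (by decide +kernel)

theorem omega_rows : prodRows (List.replicate 10 spider).flatten idRows = omegaRows := by decide +kernel

/-- the scalar ω -/
noncomputable def Ω : GL (Fin 54) (ZMod 2) := wp U (List.replicate 10 spider).flatten

lemma Ω_cube : Ω ^ 3 = 1 := by
  refine Units.ext ?_
  have hl : omegaRows.length = 54 := by decide +kernel
  have h : bmul (bmul omegaRows omegaRows) omegaRows = idRows := by decide +kernel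
  rw [Units.val_pow_eq_pow_val, Ω, coe_wp, omega_rows, pow_succ, pow_two, ← bmat_mul 54 _ _ hl hl,
    ← bmat_mul 54 _ _ (by rw [bmul_length, hl]) hl, h, idRows, bmat_bone, Units.val_one]

lemma Ω_ne : Ω ≠ 1 := by
  intro h
  have h1 : ((Ω : GL (Fin 54) (ZMod 2)) : Matrix (Fin 54) (Fin 54) (ZMod 2)) 1 1 = 1 := by
    rw [h, Units.val_one, Matrix.one_apply_eq]
  have h2 : ((omegaRows.getD 1 0).testBit 1) = false := by decide +kernel
  rw [Ω, coe_wp, omega_rows] at h1
  change (if (omegaRows.getD 1 0).testBit 1 then (1 : ZMod 2) else 0) = 1 at h1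
  rw [h2] at h1
  exact absurd h1 (by decide)

theorem omega_comm_rows : ((List.range 9).all fun i =>
    bmul omegaRows (genRows i) == bmul (genRows i) omegaRows) = true := by decide +kernel

lemma Ω_comm (i : ℕ) (hi : i < 9) : Ω * U i = U i * Ω := by
  have h := omega_comm_rows
  simp only [List.all_eq_true, List.mem_range, beq_iff_eq] at h
  refine Units.ext ?_
  rw [Units.val_mul, Units.val_mul, Ω, coe_wp, omega_rows]
  change bmat 54 omegaRows * bmat 54 (genRows i) = bmat 54 (genRows i) * bmat 54 omegaRows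
  have hl : omegaRows.length = 54 := by decide +kernel
  rw [← bmat_mul 54 _ _ hl (genRows_length i), ← bmat_mul 54 _ _ (genRows_length i) hl, h i hi]

theorem noncomm_rows :
    ((List.range 54).any fun i => (prodRows [0, 1] idRows).getD i 0 != (prodRows [1, 0] idRows).getD i 0) = true ∧
      (List.range 54).all (fun i => Nat.blt ((prodRows [0, 1] idRows).getD i 0) (2 ^ 54) &&
        Nat.blt ((prodRows [1, 0] idRows).getD i 0) (2 ^ 54)) = true := by decide +kernel

lemma bmat_row_inj {A B : List ℕ} (h : bmat 54 A = bmat 54 B) (i : ℕ) (hi : i < 54)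
    (hA : A.getD i 0 < 2 ^ 54) (hB : B.getD i 0 < 2 ^ 54) : A.getD i 0 = B.getD i 0 := by
  refine Nat.eq_of_testBit_eq fun j => ?_
  rcases Nat.lt_or_ge j 54 with hj | hj
  · have := congrFun (congrFun h ⟨i, hi⟩) ⟨j, hj⟩
    change (if (A.getD i 0).testBit j then (1 : ZMod 2) else 0) =
      (if (B.getD i 0).testBit j then (1 : ZMod 2) else 0) at this
    revert this
    cases (A.getD i 0).testBit j <;> cases (B.getD i 0).testBit j <;> simp
  · have hp : 2 ^ 54 ≤ 2 ^ j := Nat.pow_le_pow_right (by omega) hj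
    rw [Nat.testBit_lt_two_pow (lt_of_lt_of_le hA hp), Nat.testBit_lt_two_pow (lt_of_lt_of_le hB hp)]

lemma U_noncomm : U 0 * U 1 ≠ U 1 * U 0 := by
  intro h
  have h1 : bmat 54 (prodRows [0, 1] idRows) = bmat 54 (prodRows [1, 0] idRows) := by
    rw [← coe_wp, ← coe_wp]
    exact congrArg Units.val (by simpa [wp] using h)
  obtain ⟨ha, hb⟩ := noncomm_rows
  simp only [List.any_eq_true, List.mem_range, bne_iff_ne] at ha
  simp only [List.all_eq_true, List.mem_range, Bool.and_eq_true, Nat.blt_eq] at hb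
  obtain ⟨i, hi, hne⟩ := ha
  exact hne (bmat_row_inj h1 i hi (hb i hi).1 (hb i hi).2)

/-! ### the double cover inside Fi₂₃ -/

open CfsgLib.SporRecognition.CosetCert
open Cfsg.Agent.S1688 (R23 of23 emb H g zH zH_central orderOf_zH closure_g card23)

/-- the generators of the double cover by position -/
noncomputable def gH (i : ℕ) : H := g (pick i)

lemma coe_wp_gH (w : List ℕ) : ((wp gH w : H) : PresentedGroup R23) = wp (fun i => of23 (emb (pick i))) w :=
  CentralLift.map_wp H.subtype gH w

lemma gH_cox (i : ℕ) (hi : i < 9) (j : ℕ) (hj : j < 9) : (gH i * gH j) ^ lab i j = 1 := by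
  have hl : ∀ i < 9, ∀ j < 9, Spor.coxLabel Spor.Fi23.edges (emb (pick i)) (emb (pick j)) = lab i j := by
    decide +kernel
  have hn : ∀ x, x ∈ Spor.coxNodes Spor.Fi23.edges := by intro x; cases x <;> decide
  refine Subtype.ext ?_
  rw [Subgroup.coe_pow, Subgroup.coe_mul, ← hl i hi j hj]
  exact PresentedGroup.one_of_mem
    (show (FreeGroup.of (emb (pick i)) * FreeGroup.of (emb (pick j))) ^
        Spor.coxLabel Spor.Fi23.edges (emb (pick i)) (emb (pick j)) ∈ _ from
      Or.inl ⟨emb (pick i), hn _, emb (pick j), hn _, rfl⟩)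

lemma gH_spider : wp gH (List.replicate 10 spider).flatten = 1 := by
  refine Subtype.ext ?_
  rw [coe_wp_gH, OneMemClass.coe_one, wp_replicate]
  have h : PresentedGroup.mk R23
      ((Spor.Fi23.d * Spor.Fi23.c * Spor.Fi23.b * Spor.Fi23.d * Spor.Fi23.e * Spor.Fi23.f * Spor.Fi23.d *
        Spor.Fi23.h * Spor.Fi23.i) ^ 10) = 1 :=
    PresentedGroup.one_of_mem (Or.inr (by simp [Spor.Fi23.extra]))
  rw [← h]
  simp only [map_pow, map_mul, wp, spider, pick, gens, emb, List.map_cons, List.map_nil,
    List.prod_cons, List.prod_nil, List.getD_cons_zero, List.getD_cons_succ, mul_one, mul_assoc]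
  rfl

lemma gH_zOne : wp gH zOne = 1 := by
  refine Subtype.ext ?_
  rw [coe_wp_gH, OneMemClass.coe_one, zOne, wp_replicate]
  have h : PresentedGroup.mk R23
      ((Spor.Fi23.a * Spor.Fi23.b * Spor.Fi23.c * Spor.Fi23.d * Spor.Fi23.e * Spor.Fi23.f *
        Spor.Fi23.h) ^ 9) = 1 :=
    PresentedGroup.one_of_mem (Or.inr (by simp [Spor.Fi23.extra]))
  rw [← h]
  simp only [map_pow, map_mul, wp, pick, gens, emb, List.map_cons, List.map_nil,
    List.prod_cons, List.prod_nil, List.getD_cons_zero, List.getD_cons_succ, mul_one, mul_assoc]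
  rfl

lemma gH_zTwo : wp gH zTwo = zH := by
  rw [Cfsg.Agent.S1688.zH, evalW_eq_prod,
    show Cfsg.Agent.S1688.zw22 = zTwo.map (fun i => (pick i, true)) by decide +kernel, List.map_map]
  rfl

/-! ### the pairs -/

/-- a generator pair -/
noncomputable def pGen (x : Spor.Fi22.Gen) : GL (Fin 54) (ZMod 2) × H := (U (gens.idxOf x), g x)

/-- the covering group -/
def P : Subgroup (GL (Fin 54) (ZMod 2) × H) := Subgroup.closure (Set.range pGen)

/-- a generator of the covering group -/
noncomputable def q (i : ℕ) : P := ⟨pGen (pick i), Subgroup.subset_closure ⟨_, rfl⟩⟩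

lemma idxOf_pick : ∀ i < 9, gens.idxOf (pick i) = i := by decide

lemma coe_q (i : ℕ) (hi : i < 9) : ((q i : P) : GL (Fin 54) (ZMod 2) × H) = (U i, gH i) := by
  show (U (gens.idxOf (pick i)), g (pick i)) = _
  rw [idxOf_pick i hi]; rfl

lemma coe_wp_q : ∀ w : List ℕ, (∀ i ∈ w, i < 9) →
    ((wp q w : P) : GL (Fin 54) (ZMod 2) × H) = (wp U w, wp gH w)
  | [], _ => rfl
  | i :: w, h => by
    rw [wp_cons, Subgroup.coe_mul, coe_wp_q w (fun j hj => h j (List.mem_cons_of_mem _ hj)),
      coe_q i (h i List.mem_cons_self), Prod.mk_mul_mk]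
    rfl

theorem exists_cover : ∃ (Γ : Type) (_ : Group Γ) (_ : Finite Γ) (σ : Γ →* Spor.Fi22),
    Cfsg.IsStemExtension σ ∧ Nonempty (σ.ker ≃* Multiplicative (ZMod 6)) := by
  haveI : Finite (PresentedGroup R23) := Nat.finite_of_card_ne_zero (by rw [card23]; decide)
  set v : GL (Fin 54) (ZMod 2) × H := (Ω, zH) with hv
  have hvP : v ∈ P := by
    have h := (wp q ((List.replicate 10 spider).flatten ++ zTwo)).2
    rwa [coe_wp_q _ (by decide +kernel), wp_append, wp_append, U_zTwo, mul_one, gH_spider, one_mul, gH_zTwo] at h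
  set u : P := ⟨v, hvP⟩ with hu
  have hvc : P ≤ Subgroup.centralizer {v} := by
    rw [P, Subgroup.closure_le]
    rintro _ ⟨x, rfl⟩
    obtain ⟨i, hi, rfl⟩ := pick_surj x
    rw [SetLike.mem_coe, Subgroup.mem_centralizer_iff]
    rintro _ rfl
    refine Prod.ext ?_ (Subgroup.mem_center_iff.1 zH_central _).symm
    show Ω * U (gens.idxOf (pick i)) = U (gens.idxOf (pick i)) * Ω
    rw [idxOf_pick i hi]
    exact Ω_comm i hi
  set K : Subgroup P := Subgroup.zpowers u with hK
  have huc : u ∈ Subgroup.center P := by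
    rw [Subgroup.mem_center_iff]
    intro y
    exact Subtype.ext ((Subgroup.mem_centralizer_iff.1 (hvc y.2)) v rfl).symm
  have hKc : K ≤ Subgroup.center P := Subgroup.zpowers_le.2 huc
  have : K.Normal := ⟨fun x hx y => by
    rw [Subgroup.mem_center_iff.1 (hKc hx) y, mul_inv_cancel_right]; exact hx⟩
  haveI : Fact (Nat.Prime 3) := ⟨Nat.prime_three⟩
  have hord : orderOf u = 6 := by
    rw [← Subgroup.orderOf_coe]
    show orderOf ((Ω, zH) : GL (Fin 54) (ZMod 2) × H) = 6
    rw [Prod.orderOf, orderOf_zH, orderOf_eq_prime Ω_cube Ω_ne]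
    exact Nat.Coprime.lcm_eq_mul (m := 3) (n := 2) (by norm_num)
  have hzH2 : zH ^ 2 = 1 := by rw [← orderOf_zH]; exact pow_orderOf_eq_one _
  -- the relators
  have hcox : ∀ i, i < 9 → ∀ j, j < 9 → (q i * q j) ^ lab i j = 1 := by
    intro i hi j hj
    refine Subtype.ext ?_
    rw [Subgroup.coe_pow, Subgroup.coe_mul, coe_q i hi, coe_q j hj, Prod.mk_mul_mk, Prod.pow_mk,
      U_cox i hi j hj, gH_cox i hi j hj]
    rfl
  have hz1 : wp q zOne = 1 := by
    refine Subtype.ext ?_
    rw [coe_wp_q _ (by decide +kernel), U_zOne, gH_zOne]; rfl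
  have hz2 : wp q zTwo = u ^ 3 := by
    refine Subtype.ext ?_
    rw [coe_wp_q _ (by decide +kernel), U_zTwo, gH_zTwo, Subgroup.coe_pow, hu]
    show _ = (Ω, zH) ^ 3
    rw [Prod.pow_mk, Ω_cube, show (3 : ℕ) = 2 + 1 from rfl, pow_succ, hzH2, one_mul]
  have hsp : wp q (List.replicate 10 spider).flatten = u ^ 4 := by
    refine Subtype.ext ?_
    rw [coe_wp_q _ (by decide +kernel), gH_spider, Subgroup.coe_pow, hu]
    show (Ω, 1) = (Ω, zH) ^ 4
    rw [Prod.pow_mk, show zH ^ 4 = (zH ^ 2) ^ 2 from pow_mul zH 2 2, hzH2, one_pow, pow_succ, Ω_cube,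
      one_mul]
  -- the map from the presentation
  set m : P →* P ⧸ K := QuotientGroup.mk' K with hm
  let f : Spor.Fi22.Gen → P ⧸ K := fun x => m (q (gens.idxOf x))
  have fpick : ∀ i, i < 9 → f (pick i) = m (q i) := by
    intro i hi; exact congrArg (fun k => m (q k)) (idxOf_pick i hi)
  have mwp : ∀ w, wp (fun i => m (q i)) w = m (wp q w) := fun w => (CentralLift.map_wp m q w).symm
  have frel : ∀ x ∈ Spor.coxRelators Spor.Fi22.edges ∪ {r | r ∈ Spor.Fi22.extra}, FreeGroup.lift f x = 1 := by
    rintro x (⟨p, -, p', -, rfl⟩ | hx)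
    · obtain ⟨i, hi, rfl⟩ := pick_surj p
      obtain ⟨j, hj, rfl⟩ := pick_surj p'
      simp only [map_pow, map_mul, FreeGroup.lift_apply_of, fpick i hi, fpick j hj, pick_label i hi j hj]
      rw [← map_mul, ← map_pow]
      exact (congrArg m (hcox i hi j hj)).trans (map_one m)
    · simp only [Spor.Fi22.extra, List.mem_cons, List.not_mem_nil, or_false, Set.mem_ofPred_eq] at hx
      have e : ∀ x, f x = m (q (gens.idxOf x)) := fun _ => rfl
      have hk : ∀ k : ℕ, m (u ^ k) = 1 := fun k =>
        (QuotientGroup.eq_one_iff _).2 (pow_mem (Subgroup.mem_zpowers u) k)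
      have e1 := hk 4
      have e2 := hk 3
      have e3 : m (wp q zOne) = 1 := by rw [hz1, map_one]
      rw [← hsp, ← mwp, wp_replicate] at e1
      rw [← hz2, ← mwp, zTwo, wp_replicate] at e2
      rw [← mwp, zOne, wp_replicate] at e3
      rcases hx with rfl | rfl | rfl
      · rw [← e1]; simp [e, gens, wp, spider, mul_assoc]
      · rw [← e3]; simp [e, gens, wp, mul_assoc]
      · rw [← e2]; simp [e, gens, wp, mul_assoc]
  let φ : Spor.Fi22 →* P ⧸ K := PresentedGroup.toGroup frel
  have hgen : Subgroup.closure (Set.range fun x => q (gens.idxOf x)) = ⊤ := by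
    apply Subgroup.map_injective P.subtype_injective
    rw [MonoidHom.map_closure, ← MonoidHom.range_eq_map, Subgroup.range_subtype]
    show _ = Subgroup.closure _
    congr 1
    rw [← Set.range_comp]
    congr 1
    funext x
    obtain ⟨i, hi, rfl⟩ := pick_surj x
    show ((q (gens.idxOf (pick i)) : P) : GL (Fin 54) (ZMod 2) × H) = pGen (pick i)
    rw [idxOf_pick i hi]
    rfl
  have hsurj : Function.Surjective φ := by
    rw [← MonoidHom.range_eq_top, eq_top_iff]
    rintro x -
    obtain ⟨y, rfl⟩ := QuotientGroup.mk'_surjective K x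
    have hy : y ∈ Subgroup.closure (Set.range fun x => q (gens.idxOf x)) := by rw [hgen]; trivial
    induction hy using Subgroup.closure_induction with
    | mem z hz => obtain ⟨a, rfl⟩ := hz; exact ⟨PresentedGroup.of a, PresentedGroup.toGroup.of frel⟩
    | one => rw [map_one]; exact one_mem _
    | mul z z' _ _ hz hz' => rw [map_mul]; exact mul_mem hz hz'
    | inv z _ hz => rw [map_inv]; exact inv_mem hz
  haveI : IsSimpleGroup Spor.Fi22 := Cfsg.Agent.S1696.result.1
  have hinj : Function.Injective φ := by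
    rw [← MonoidHom.ker_eq_bot_iff]
    rcases (MonoidHom.normal_ker φ).eq_bot_or_eq_top with h | h
    · exact h
    exfalso
    obtain ⟨y, hy⟩ := hsurj (m (q 0))
    have h0 : q 0 ∈ K := (QuotientGroup.eq_one_iff _).1 (by
      show m (q 0) = 1
      rw [← hy]; exact MonoidHom.mem_ker.1 (h ▸ Subgroup.mem_top y))
    have h01 := congrArg (fun z : P => (z : GL (Fin 54) (ZMod 2) × H).1)
      (Subgroup.mem_center_iff.1 (hKc h0) (q 1))
    simp only [Subgroup.coe_mul, coe_q 0 (by omega), coe_q 1 (by omega), Prod.mk_mul_mk] at h01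
    exact U_noncomm h01.symm
  let e : Spor.Fi22 ≃* P ⧸ K := MulEquiv.ofBijective φ ⟨hinj, hsurj⟩
  let σ : P →* Spor.Fi22 := (e.symm : P ⧸ K →* Spor.Fi22).comp m
  have hker : σ.ker = K := by
    ext x
    simp [σ, hm, QuotientGroup.eq_one_iff]
  -- the group of pairs is perfect
  have hperf : commutator P = ⊤ := by
    rw [← Abelianization.ker_of, eq_top_iff, ← hgen, Subgroup.closure_le]
    set χ := Abelianization.of (G := P)
    have hc : ∀ i, i < 9 → ∀ j, j < 9 → (χ (q i) * χ (q j)) ^ lab i j = 1 := fun i hi j hj => by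
      rw [← map_mul, ← map_pow, hcox i hi j hj, map_one]
    have hsq : ∀ i, i < 9 → χ (q i) * χ (q i) = 1 := fun i hi => by simpa [lab] using hc i hi i hi
    have hedge : ∀ i, i < 9 → ∀ j, j < 9 → lab i j = 3 → χ (q i) = χ (q j) := by
      intro i hi j hj hl
      have h3 := hc i hi j hj
      rw [hl, pow_three, mul_mul_mul_comm (χ (q i)) (χ (q j)) (χ (q i)), hsq i hi, hsq j hj, one_mul,
        mul_one] at h3
      exact (mul_eq_one_iff_eq_inv.1 h3).trans (inv_eq_of_mul_eq_one_right (hsq j hj))
    have hall : ∀ i, i < 9 → χ (q i) = χ (q 0) := by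
      intro i
      induction i using Nat.strong_induction_on with
      | _ i IH =>
      intro hi
      rcases Nat.eq_zero_or_pos i with rfl | h0
      · rfl
      · have hp : par i < i ∧ lab i (par i) = 3 :=
          (by decide : ∀ k < 9, 0 < k → par k < k ∧ lab k (par k) = 3) i hi h0
        rw [hedge i hi (par i) (by omega) hp.2, IH (par i) hp.1 (by omega)]
    have hx : χ (q 0) = 1 := by
      have h63 := congrArg χ hz1
      rw [CentralLift.map_wp, map_one] at h63
      have hlt : ∀ i ∈ zOne, i < 9 := by decide +kernel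
      rw [wp, List.map_congr_left (g := fun _ => χ (q 0)) (fun i hi => hall i (hlt i hi)),
        List.map_const', List.prod_replicate, show zOne.length = 2 * 31 + 1 by decide, pow_succ, pow_mul,
        pow_two, hsq 0 (by omega), one_pow, one_mul] at h63
      exact h63
    rintro _ ⟨x, rfl⟩
    obtain ⟨i, hi, rfl⟩ := pick_surj x
    rw [SetLike.mem_coe, MonoidHom.mem_ker]
    show χ (q (gens.idxOf (pick i))) = 1
    rw [idxOf_pick i hi, hall i hi, hx]
  refine ⟨P, inferInstance, inferInstance, σ,
    ⟨e.symm.surjective.comp (QuotientGroup.mk'_surjective K), hker ▸ hKc, by rw [hperf]; exact le_top⟩, ?_⟩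
  rw [hker]
  have hcard : Nat.card K = 6 := by rw [Nat.card_zpowers, hord]
  have hcyc : IsCyclic K := Subgroup.isCyclic_zpowers u
  exact ⟨(zmodCyclicMulEquiv hcyc).symm.trans
    (AddEquiv.toMultiplicative (ZMod.ringEquivCongr hcard).toAddEquiv)⟩

end CfsgLib.SchurMult.Fi22Cover
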