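import Cfsg.Agent.Lib.SchurMult.Fi22.Bound

/-!
# Every stem extension of Fi₂₂ has cyclic kernel of order dividing six
-/

set_option autoImplicit false
open Cfsg

namespace CfsgLib.SchurMult.Fi22Bound

open CfsgLib.ExtraspecialLarge CfsgLib.ExtraspecialLarge.RootRefl

/-- a group embedded in a cyclic subgroup killed by `n` is an image of `ZMod n` -/
lemma exists_surjective_of_le_zpowers {K Δ : Type*} [Group K] [Group Δ] (f : K →* Δ) (hf : Function.Injective f)
    {u : Δ} {n : ℕ} (hu : u ^ n = 1) (hK : ∀ x, f x ∈ Subgroup.zpowers u) :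
    ∃ π : Multiplicative (ZMod n) →* K, Function.Surjective π := by
  haveI : IsCyclic f.range := Subgroup.isCyclic_of_le
    (show f.range ≤ Subgroup.zpowers u by rintro _ ⟨x, rfl⟩; exact hK x)
  haveI : IsCyclic K := isCyclic_of_surjective (MonoidHom.ofInjective hf).symm.toMonoidHom (MulEquiv.surjective _)
  obtain ⟨g, hg⟩ := IsCyclic.exists_generator (α := K)
  have hgn : g ^ n = 1 := by
    apply hf
    obtain ⟨j, hj⟩ := Subgroup.mem_zpowers_iff.1 (hK g)
    rw [map_pow, map_one, ← hj, ← zpow_natCast, ← zpow_mul, mul_comm, zpow_mul, zpow_natCast, hu, one_zpow]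
  refine ⟨AddMonoidHom.toMultiplicativeLeft
    (ZMod.lift n ⟨zmultiplesHom (Additive K) (Additive.ofMul g), ?_⟩), ?_⟩
  · apply Additive.toMul.injective
    simpa [zmultiplesHom_apply] using hgn
  · intro x
    obtain ⟨j, rfl⟩ := hg x
    exact ⟨Multiplicative.ofAdd (j : ZMod n), by simp [zmultiplesHom_apply]⟩

set_option maxHeartbeats 1000000 in
theorem ker_image (Γ : Type) [Group Γ] [Finite Γ] (σ : Γ →* Spor.Fi22) (hσ : Cfsg.IsStemExtension σ) :
    ∃ π : Multiplicative (ZMod 6) →* σ.ker, Function.Surjective π := by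
  obtain ⟨Δ, _, τ, ι, ε, hτc, hinj, hτι, τε, hs, hz1, τz2, hz2, τs, hs3⟩ := exists_lifts hσ
  have hτι' : ∀ x, τ (ι x) = σ x := fun x => DFunLike.congr_fun hτι x
  set t := wp ε zTwo with ht
  set s := wp ε spider ^ 10 with hsdef
  set u := t * s with hu
  have hc : Commute t s := ((Subgroup.mem_center_iff.1 (hτc (MonoidHom.mem_ker.2 τs))) t)
  have hu3 : u ^ 3 = t := by
    rw [hu, hc.mul_pow, hs3, mul_one, pow_three, hz2, mul_one]
  have hu4 : u ^ 4 = s := by
    have ht4 : t ^ 4 = 1 := by rw [show (4 : ℕ) = 2 * 2 by rfl, pow_mul, pow_two t, hz2, one_pow]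
    rw [hu, hc.mul_pow, ht4, one_mul, show (4 : ℕ) = 3 + 1 by rfl, pow_succ, hs3, one_mul]
  have hu6 : u ^ 6 = 1 := by rw [show (6 : ℕ) = 3 * 2 by rfl, pow_mul, hu3, pow_two, hz2]
  set N : Subgroup Δ := Subgroup.zpowers u with hN
  have hNτ : N ≤ τ.ker := by
    rw [hN, Subgroup.zpowers_le, MonoidHom.mem_ker, hu, map_mul, τz2, τs, mul_one]
  have : N.Normal := ⟨fun x hx y => by
    rw [Subgroup.mem_center_iff.1 (hτc (hNτ hx)) y, mul_inv_cancel_right]; exact hx⟩
  have htN : t ∈ N := by rw [← hu3]; exact pow_mem (Subgroup.mem_zpowers u) 3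
  have hsN : s ∈ N := by rw [← hu4]; exact pow_mem (Subgroup.mem_zpowers u) 4
  set m : Δ →* Δ ⧸ N := QuotientGroup.mk' N with hm
  let f : Spor.Fi22.Gen → Δ ⧸ N := fun x => m (ε (gens.idxOf x))
  have fpick : ∀ i, i < 9 → f (pick i) = m (ε i) := by
    intro i hi; exact congrArg (fun k => m (ε k)) (by revert hi; revert i; decide)
  have mwp : ∀ w, wp (fun i => m (ε i)) w = m (wp ε w) := fun w => (CentralLift.map_wp m ε w).symm
  have frel : ∀ x ∈ Spor.coxRelators Spor.Fi22.edges ∪ {r | r ∈ Spor.Fi22.extra}, FreeGroup.lift f x = 1 := by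
    rintro x (⟨p, -, p', -, rfl⟩ | hx)
    · obtain ⟨i, hi, rfl⟩ := pick_surj p
      obtain ⟨j, hj, rfl⟩ := pick_surj p'
      simp only [map_pow, map_mul, FreeGroup.lift_apply_of, fpick i hi, fpick j hj, pick_label i hi j hj]
      rw [← map_mul, ← map_pow, ← map_one m]
      congr 1
      split_ifs with h h'
      · subst h; rw [pow_one]; exact hs.sq i hi
      · have hb' := hs.braid i hi j h'
        calc (ε i * ε j) ^ 3 = (ε i * ε j * ε i) * (ε j * ε i * ε j) := by rw [pow_three]; group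
          _ = (ε i * ε j * ε i) * (ε i * ε j * ε i) := by rw [hb']
          _ = ε i * ε j * (ε i * ε i) * ε j * ε i := by group
          _ = 1 := by rw [hs.sq i hi, mul_one, mul_assoc (ε i), hs.sq j hj, mul_one, hs.sq i hi]
      · rw [pow_two]
        calc ε i * ε j * (ε i * ε j) = ε i * ε j * (ε j * ε i) := by rw [hs.comm i hi j hj h h']
          _ = ε i * (ε j * ε j) * ε i := by group
          _ = 1 := by rw [hs.sq j hj, mul_one, hs.sq i hi]
    · simp only [Spor.Fi22.extra, List.mem_cons, List.not_mem_nil, or_false, Set.mem_ofPred_eq] at hx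
      have e : ∀ x, f x = m (ε (gens.idxOf x)) := fun _ => rfl
      have e1 : m s = 1 := (QuotientGroup.eq_one_iff s).2 hsN
      have e2 : m t = 1 := (QuotientGroup.eq_one_iff t).2 htN
      have e3 : m (wp ε zOne) = 1 := by rw [hz1, map_one]
      rw [hsdef, map_pow, ← mwp] at e1
      rw [ht, ← mwp, zTwo, wp_replicate] at e2
      rw [← mwp, zOne, wp_replicate] at e3
      rcases hx with rfl | rfl | rfl
      · rw [← e1]; simp [e, gens, wp, spider, mul_assoc]
      · rw [← e3]; simp [e, gens, wp, mul_assoc]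
      · rw [← e2]; simp [e, gens, wp, mul_assoc]
  let φ : Spor.Fi22 →* Δ ⧸ N := PresentedGroup.toGroup frel
  let τ' : Δ ⧸ N →* Spor.Fi22 := QuotientGroup.lift N τ hNτ
  have hτφ : ∀ x, τ' (φ x) = x := by
    intro x
    refine DFunLike.congr_fun (f := τ'.comp φ) (g := MonoidHom.id _) (PresentedGroup.ext fun p => ?_) x
    obtain ⟨i, hi, rfl⟩ := pick_surj p
    simp only [MonoidHom.comp_apply, φ, PresentedGroup.toGroup.of, fpick i hi, MonoidHom.id_apply]
    exact τε i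
  have hτm : ∀ y, τ' (m y) = τ y := fun y => rfl
  have hcen' : ∀ z, τ' z = 1 → ∀ y, z * y = y * z := by
    intro z hz y
    obtain ⟨z, rfl⟩ := QuotientGroup.mk'_surjective N z
    obtain ⟨y, rfl⟩ := QuotientGroup.mk'_surjective N y
    rw [← map_mul, ← map_mul]
    exact congrArg _ (Subgroup.mem_center_iff.1 (hτc (MonoidHom.mem_ker.2 hz)) y).symm
  have hsplit : ∀ x, ∀ y, m (ι x) * (φ (σ x))⁻¹ * y = y * (m (ι x) * (φ (σ x))⁻¹) := fun x y =>
    hcen' _ (by rw [map_mul, map_inv, hτm, hτι', hτφ, mul_inv_cancel]) y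
  have hle : commutator Γ ≤ (MonoidHom.eqLocus (m.comp ι) (φ.comp σ)) := by
    rw [commutator_def, Subgroup.commutator_le]
    intro x _ y _
    change m (ι (x * y * x⁻¹ * y⁻¹)) = φ (σ (x * y * x⁻¹ * y⁻¹))
    simp only [map_mul, map_inv]
    set cx := m (ι x) * (φ (σ x))⁻¹ with hcx
    set cy := m (ι y) * (φ (σ y))⁻¹ with hcy
    have ex : m (ι x) = cx * φ (σ x) := by rw [hcx]; group
    have ey : m (ι y) = cy * φ (σ y) := by rw [hcy]; group
    have kx : ∀ z, cx * z = z * cx := hsplit x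
    have ky : ∀ z, cy * z = z * cy := hsplit y
    clear_value cx cy
    rw [ex, ey, mul_inv_rev (a := cx), mul_inv_rev (a := cy)]
    calc cx * φ (σ x) * (cy * φ (σ y)) * ((φ (σ x))⁻¹ * cx⁻¹) * ((φ (σ y))⁻¹ * cy⁻¹)
        = cx * (φ (σ x) * cy) * (φ (σ y) * (φ (σ x))⁻¹) * cx⁻¹ * ((φ (σ y))⁻¹ * cy⁻¹) := by group
      _ = cx * (cy * φ (σ x)) * (φ (σ y) * (φ (σ x))⁻¹) * cx⁻¹ * ((φ (σ y))⁻¹ * cy⁻¹) := by rw [ky]
      _ = cx * (cy * φ (σ x) * (φ (σ y) * (φ (σ x))⁻¹)) * cx⁻¹ * ((φ (σ y))⁻¹ * cy⁻¹) := by group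
      _ = cy * φ (σ x) * (φ (σ y) * (φ (σ x))⁻¹) * ((φ (σ y))⁻¹ * cy⁻¹) := by rw [kx]; group
      _ = cy * (φ (σ x) * φ (σ y) * (φ (σ x))⁻¹ * (φ (σ y))⁻¹) * cy⁻¹ := by group
      _ = φ (σ x) * φ (σ y) * (φ (σ x))⁻¹ * (φ (σ y))⁻¹ := by rw [ky]; group
  refine exists_surjective_of_le_zpowers (ι.comp σ.ker.subtype) (hinj.comp Subtype.val_injective) hu6 fun x => ?_
  have h := hle (hσ.2.2 x.2)
  change m (ι (x : Γ)) = φ (σ (x : Γ)) at h
  rw [MonoidHom.mem_ker.1 x.2, map_one] at h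
  exact (QuotientGroup.eq_one_iff _).1 h

end CfsgLib.SchurMult.Fi22Bound
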